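import Cfsg.Agent.Lib.Helper48.E27.Defs
import Cfsg.Agent.Lib.Helper77.Asch.HCM
import Cfsg.Agent.Lib.Helper77.Asch.EX1
import Cfsg.Agent.Lib.Helper77.Asch.HB

set_option autoImplicit false

namespace Cfsg.Agent.Lib.Helper48.E27

open Cfsg Cfsg.Geo Cfsg.Agent.Lib.Helper77.Asch
open scoped MatrixGroups

variable {F : Type*} [Field F]

/-- RUNG BIG: an element of order r ≥ 5 normalising `R` is scalar.
(conjugation by h is a permutation φ of R with φ^r = 1; zpowers φ is an r-group acting on R, so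
27 = |R| ≡ |fixed points| mod r (`IsPGroup.card_modEq_card_fixedPoints`); the fixed points are the subgroup C_R(h),
of order dividing 27 and containing sc w = x y x⁻¹ y⁻¹ ≠ 1, so of order 3, 9 or 27; r ∤ 24, 18; so h centralises
x, y and `heis_commutant` applies.) -/
theorem big (R : Subgroup (GL (Fin 3) F)) (hR : Nat.card R = 27) (x y : GL (Fin 3) F) (w : Fˣ)
    (hx : x ^ 3 = 1) (hy : y ^ 3 = 1) (hw : orderOf w = 3) (hc : x * y = sc w * (y * x))
    (hxR : x ∈ R) (hyR : y ∈ R) (r : ℕ) (hr : r.Prime) (hr2 : r ≠ 2) (hr3 : r ≠ 3)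
    (h : GL (Fin 3) F) (hN : h ∈ subgroupNormalizer R) (hpow : h ^ r = 1) : h ∈ scalars (Fin 3) F := by
  classical
  have hfin : Finite R := Nat.finite_of_card_ne_zero (by rw [hR]; norm_num)
  have hrF : Fact r.Prime := ⟨hr⟩
  have hN' : ∀ a, a ∈ R ↔ h * a * h⁻¹ ∈ R := by
    unfold subgroupNormalizer at hN
    rw [Subgroup.mem_normalizer_iff] at hN
    exact hN
  let φ : Equiv.Perm R :=
    { toFun := fun a => ⟨h * a * h⁻¹, (hN' a).1 a.2⟩
      invFun := fun a => ⟨h⁻¹ * a * h, (hN' _).2 (by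
        have : h * (h⁻¹ * (a : GL (Fin 3) F) * h) * h⁻¹ = a := by group
        rw [this]; exact a.2)⟩
      left_inv := fun a => Subtype.ext (by
        show h⁻¹ * (h * (a : GL (Fin 3) F) * h⁻¹) * h = a
        group)
      right_inv := fun a => Subtype.ext (by
        show h * (h⁻¹ * (a : GL (Fin 3) F) * h) * h⁻¹ = a
        group) }
  have hφ1 : ∀ a : R, ((φ a : R) : GL (Fin 3) F) = h * a * h⁻¹ := fun a => rfl
  have hφpow : ∀ (k : ℕ) (a : R), (((φ ^ k) a : R) : GL (Fin 3) F) = h ^ k * a * (h ^ k)⁻¹ := by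
    intro k
    induction k with
    | zero => intro a; simp
    | succ k ih =>
      intro a
      rw [pow_succ', Equiv.Perm.mul_apply, hφ1, ih, pow_succ']
      group
  have hφr : φ ^ r = 1 := by
    ext a
    rw [hφpow, hpow]; simp
  have hP : IsPGroup r (Subgroup.zpowers φ) := by
    rintro ⟨g, hg⟩
    obtain ⟨m, rfl⟩ := Subgroup.mem_zpowers_iff.1 hg
    refine ⟨1, Subtype.ext ?_⟩
    show (φ ^ m) ^ (r ^ 1) = 1
    rw [pow_one, ← zpow_natCast, ← zpow_mul, mul_comm, zpow_mul, zpow_natCast, hφr, one_zpow]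
  have hmod := hP.card_modEq_card_fixedPoints R
  let C : Subgroup R := (Subgroup.centralizer {h}).subgroupOf R
  have hCmem : ∀ a : R, a ∈ C ↔ h * (a : GL (Fin 3) F) = a * h := by
    intro a
    show (a : GL (Fin 3) F) ∈ Subgroup.centralizer {h} ↔ _
    rw [Subgroup.mem_centralizer_iff]
    simp
  have hfix : ∀ a : R, φ a = a ↔ h * (a : GL (Fin 3) F) = a * h := by
    intro a
    rw [Subtype.ext_iff, hφ1, mul_inv_eq_iff_eq_mul]
  have hset : MulAction.fixedPoints (Subgroup.zpowers φ) R = (C : Set R) := by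
    ext a
    constructor
    · intro ha
      have h1 : φ a = a := ha ⟨φ, Subgroup.mem_zpowers φ⟩
      exact (hCmem a).2 ((hfix a).1 h1)
    · intro ha
      rintro ⟨g, hg⟩
      obtain ⟨m, rfl⟩ := Subgroup.mem_zpowers_iff.1 hg
      have h1 : φ a = a := (hfix a).2 ((hCmem a).1 ha)
      exact Equiv.Perm.zpow_apply_eq_self_of_apply_eq_self h1 m
  have hcard : Nat.card (MulAction.fixedPoints (Subgroup.zpowers φ) R) = Nat.card C := by
    rw [hset]; rfl
  rw [hcard, hR] at hmod
  have hdvd : Nat.card C ∣ 27 := by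
    rw [← hR]; exact Subgroup.card_subgroup_dvd_card C
  have hwR : (sc w : GL (Fin 3) F) ∈ R := by
    have : (sc w : GL (Fin 3) F) = x * y * (y * x)⁻¹ := by rw [hc]; group
    rw [this]
    exact R.mul_mem (R.mul_mem hxR hyR) (R.inv_mem (R.mul_mem hyR hxR))
  have hw1 : (sc w : GL (Fin 3) F) ≠ 1 := by
    intro h1
    have h2 := congrArg (fun g : GL (Fin 3) F => (g : Matrix (Fin 3) (Fin 3) F) 0 0) h1
    simp only [hb_sc_coe] at h2
    have h3 : w = 1 := Units.ext (by simpa using h2)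
    rw [h3, orderOf_one] at hw
    omega
  have hC1 : Nat.card C ≠ 1 := by
    intro h1
    rw [Subgroup.card_eq_one] at h1
    have h2 : (⟨sc w, hwR⟩ : R) ∈ C := (hCmem _).2 (ex1_sc_comm w h)
    rw [h1, Subgroup.mem_bot] at h2
    exact hw1 (congrArg Subtype.val h2)
  have hC27 : Nat.card C = 27 := by
    obtain ⟨k, hk, hk'⟩ := (Nat.dvd_prime_pow Nat.prime_three (m := 3)).1 (by norm_num; exact hdvd)
    have hle : Nat.card C ≤ 27 := Nat.le_of_dvd (by norm_num) hdvd
    have hd2 : r ∣ 27 - Nat.card C := (Nat.modEq_iff_dvd' hle).1 hmod.symm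
    have hr5 : 5 ≤ r := by
      have := hr.two_le
      by_contra hlt
      have : r = 4 := by omega
      rw [this] at hr
      exact absurd hr (by norm_num)
    interval_cases k
    · rw [pow_zero] at hk'; exact absurd hk' hC1
    · exfalso
      rw [hk'] at hd2
      have h24 : r ∣ 2 ^ 3 * 3 := by norm_num at hd2 ⊢; exact hd2
      rcases (Nat.Prime.dvd_mul hr).1 h24 with h5 | h5
      · have := Nat.le_of_dvd (by norm_num) (hr.dvd_of_dvd_pow h5); omega
      · have := Nat.le_of_dvd (by norm_num) h5; omega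
    · exfalso
      rw [hk'] at hd2
      have h18 : r ∣ 2 * 3 ^ 2 := by norm_num at hd2 ⊢; exact hd2
      rcases (Nat.Prime.dvd_mul hr).1 h18 with h5 | h5
      · have := Nat.le_of_dvd (by norm_num) h5; omega
      · have := Nat.le_of_dvd (by norm_num) (hr.dvd_of_dvd_pow h5); omega
    · rw [hk']; norm_num
  have hCtop : C = ⊤ := Subgroup.eq_top_of_card_eq C (by rw [hC27, hR])
  have hxC : h * x = x * h := (hCmem ⟨x, hxR⟩).1 (by rw [hCtop]; trivial)
  have hyC : h * y = y * h := (hCmem ⟨y, hyR⟩).1 (by rw [hCtop]; trivial)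
  exact heis_commutant Nat.prime_three x y w hx hy hw hc h hxC hyC

end Cfsg.Agent.Lib.Helper48.E27
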