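import Cfsg.Agent.Lib.Helper48.E27.Defs
import Cfsg.Agent.Lib.Helper50.SemiConj
import Cfsg.Agent.Lib.Helper48.Singer3

set_option autoImplicit false

namespace Cfsg.Agent.Lib.Helper48.E27

open Cfsg Cfsg.Geo Cfsg.Agent.Lib.Helper77.Asch
open scoped MatrixGroups

variable {F : Type*} [Field F]

open Polynomial in
theorem cub_target (l v : F) (hv3 : v ^ 3 = 1) :
    (l • u0 v).charpoly = (X - C l) * (X - C l) * (X - C (l * v)) ∧ (l • u0 v) ^ 3 = (l ^ 3) • 1 := by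
  constructor
  · have h : l • u0 v = Matrix.diagonal ![l, l, l * v] := by
      ext i j
      fin_cases i <;> fin_cases j <;> simp [u0]
    rw [h, Matrix.charpoly_diagonal, Fin.prod_univ_three]
    simp
  · rw [_root_.smul_pow]
    congr 1
    ext i j
    fin_cases i <;> fin_cases j <;> simp [u0, pow_succ, Matrix.mul_apply, Fin.sum_univ_three]
    rw [← hv3]; ring

open Polynomial in
theorem cub_core (v : F) (hv : v ^ 2 + v + 1 = 0) (h3 : (3 : F) ≠ 0) (x : Matrix (Fin 3) (Fin 3) F)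
    (hd : x.det = 1) (hz : v ^ 2 ≠ 1) (hx : x ^ 3 = (v ^ 2) • 1) (hns : ∀ c : F, x ≠ c • 1) :
    ∃ (σ : F) (Q : (Matrix (Fin 3) (Fin 3) F)ˣ), σ ≠ 0 ∧
      (Q : Matrix (Fin 3) (Fin 3) F) * x = (σ • u0 v) * (Q : Matrix (Fin 3) (Fin 3) F) := by
  have hv3 : v ^ 3 = 1 := by linear_combination (v - 1) * hv
  obtain ⟨a, b, h1, h2⟩ := Cfsg.Agent.Lib.Helper48.s3_rem x (v ^ 2) hx hd
  have hent : ∀ c : F, c • (1 : Matrix (Fin 3) (Fin 3) F) = 0 → c = 0 := by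
    intro c hc
    have := congrFun (congrFun hc 0) 0
    simpa using this
  have hlin : ∀ c e : F, c • x + e • (1 : Matrix (Fin 3) (Fin 3) F) = 0 → c = 0 ∧ e = 0 := by
    intro c e hce
    have hc0 : c = 0 := by
      by_contra hc0
      apply hns (-(c⁻¹ * e))
      have h4 : c • x = (-e) • (1 : Matrix (Fin 3) (Fin 3) F) := by
        rw [neg_smul]; exact eq_neg_of_add_eq_zero_left hce
      calc x = c⁻¹ • (c • x) := by rw [smul_smul, inv_mul_cancel₀ hc0, one_smul]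
        _ = (-(c⁻¹ * e)) • 1 := by rw [h4, smul_smul]; congr 1; ring
    refine ⟨hc0, ?_⟩
    rw [hc0, zero_smul, zero_add] at hce
    exact hent e hce
  have ha : a ≠ 0 := by
    rintro rfl
    rw [zero_smul, zero_add] at h2
    exact hz (sub_eq_zero.1 (hlin _ _ h2).2)
  -- x^2 = s x + t
  obtain ⟨s, hs⟩ : ∃ s, s = -(a⁻¹ * b) := ⟨_, rfl⟩
  obtain ⟨t, ht⟩ : ∃ t, t = -(a⁻¹ * (v ^ 2 - 1)) := ⟨_, rfl⟩
  have hx2 : x ^ 2 = s • x + t • 1 := by
    have h4 : a • x ^ 2 = (-b) • x + (-(v ^ 2 - 1)) • 1 := by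
      rw [neg_smul, neg_smul]
      rw [add_assoc] at h2
      rw [eq_neg_of_add_eq_zero_left h2, neg_add]
    calc x ^ 2 = a⁻¹ • (a • x ^ 2) := by rw [smul_smul, inv_mul_cancel₀ ha, one_smul]
      _ = s • x + t • 1 := by
        rw [h4, smul_add, smul_smul, smul_smul, hs, ht]
        congr 2 <;> ring
  have hx3 : (s ^ 2 + t) • x + (s * t - v ^ 2) • (1 : Matrix (Fin 3) (Fin 3) F) = 0 := by
    have h5 : x ^ 3 = (s ^ 2 + t) • x + (s * t) • 1 := by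
      calc x ^ 3 = x ^ 2 * x := pow_succ x 2
        _ = (s • x + t • 1) * x := by rw [hx2]
        _ = s • x ^ 2 + t • x := by rw [add_mul, smul_mul_assoc, smul_mul_assoc, one_mul, ← pow_two]
        _ = (s ^ 2 + t) • x + (s * t) • 1 := by
          rw [hx2, smul_add, smul_smul, smul_smul, add_smul, pow_two]
          abel
    rw [sub_smul, ← hx, h5]
    abel
  obtain ⟨h6, h7⟩ := hlin _ _ hx3
  obtain ⟨σ, hσ⟩ : ∃ σ, σ = -s := ⟨_, rfl⟩
  have hσ3 : σ ^ 3 = v ^ 2 := by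
    rw [hσ]; linear_combination h7 - s * h6
  have hσ0 : σ ≠ 0 := by
    rintro rfl
    apply hz
    have : v ^ 2 = 0 := by rw [← hσ3]; ring
    have h8 : v ^ 3 = 0 := by rw [pow_succ, this, zero_mul]
    rw [hv3] at h8
    exact absurd h8 one_ne_zero
  have haσ : a * σ ^ 2 = v ^ 2 - 1 := by
    have h8 : a * t = -(v ^ 2 - 1) := by
      rw [ht]; field_simp
    rw [hσ]; linear_combination a * h6 - h8
  have hbσ : b = σ * a := by
    rw [hσ, hs]; field_simp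
  have ha' : a = -(2 * (σ * v) + σ * v ^ 2) := by
    apply mul_right_cancel₀ (pow_ne_zero 2 hσ0)
    linear_combination haσ + (2 * v + v ^ 2) * hσ3 + (v ^ 2 + v - 1) * hv
  obtain ⟨hT1, hT2⟩ := cub_target (σ * v) v hv3
  have hchar : x.charpoly = ((σ * v) • u0 v).charpoly := by
    rw [hT1]
    have h9 : x.charpoly = X ^ 3 - C (v ^ 2) + (C a * X ^ 2 + C b * X + C (v ^ 2 - 1)) := by
      rw [← h1]; ring
    rw [h9, hbσ, ha']
    have hc1 : (C (σ * v * v) : F[X]) = C σ * C v * C v := by simp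
    have hone : (C σ : F[X]) ^ 3 * C v ^ 4 = 1 := by
      rw [← C_pow, ← C_pow, ← C_mul, hσ3]
      have : v ^ 2 * v ^ 4 = 1 := by
        have : v ^ 2 * v ^ 4 = (v ^ 3) ^ 2 := by ring
        rw [this, hv3, one_pow]
      rw [this, C_1]
    have hCv : (C v : F[X]) ^ 2 + C v + 1 = 0 := by
      rw [← C_pow, ← C_add, ← C_1, ← C_add, hv, C_0]
    simp only [C_mul, C_neg, C_add, C_sub, C_pow, C_1, C_ofNat]
    linear_combination (1 : F[X]) * hone + (-2 * C σ ^ 2 * C v * X) * hCv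
  have h9F : ((9 : ℕ) : F) ≠ 0 := by
    have : ((9 : ℕ) : F) = 3 * 3 := by norm_num
    rw [this]
    exact mul_ne_zero h3 h3
  have hz3 : (v ^ 2) ^ 3 = 1 := by
    have : (v ^ 2) ^ 3 = (v ^ 3) ^ 2 := by ring
    rw [this, hv3, one_pow]
  have hx9 : x ^ 9 = 1 := by
    have : x ^ 9 = (x ^ 3) ^ 3 := by rw [← pow_mul]
    rw [this, hx, _root_.smul_pow, one_pow, hz3, one_smul]
  have hT9 : ((σ * v) • u0 v) ^ 9 = 1 := by
    have : ((σ * v) • u0 v) ^ 9 = (((σ * v) • u0 v) ^ 3) ^ 3 := by rw [← pow_mul]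
    rw [this, hT2, _root_.smul_pow, one_pow]
    have : ((σ * v) ^ 3) ^ 3 = 1 := by
      have : ((σ * v) ^ 3) ^ 3 = (σ ^ 3) ^ 3 * (v ^ 3) ^ 3 := by ring
      rw [this, hσ3, hz3, hv3, one_pow, one_mul]
    rw [this, one_smul]
  obtain ⟨Q, hQ⟩ := Cfsg.Agent.Lib.Helper50.SemiConj.exists_conj_of_pow x ((σ * v) • u0 v) 9 9 h9F h9F hx9 hT9 hchar
  refine ⟨σ * v, Q, mul_ne_zero hσ0 ?_, hQ⟩
  rintro rfl
  simp at hv3

/-- RUNG CUB: x^3 = z ≠ 1, det x = 1, x non-scalar: x is GL-conjugate to a scalar multiple of diag(1,1,w^{±1}).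
(`s3_rem`: charpoly = X^3 + a X^2 + b X - 1 and a x^2 + b x + (z-1) = 0.  a ≠ 0 (else x scalar or z = 1).
x^2 = s x + t, s = -b/a, t = (1-z)/a; x^3 = (s^2+t) x + s t = z so t = -s^2, -s^3 = z.  Put σ = -s: σ^3 = z,
a = (z-1)/σ^2, b = (z-1)/σ.  z^3 = 1 (det), z ≠ 1 so z = w or z = w^2.
z = w^2: charpoly = (X-σw)^2 (X-σw^2) = charpoly ((σw) • u0 w);  z = w: charpoly = charpoly ((σw^2) • u0 (w^2)).
Both x and the target have 9th power 1; `Helper50.SemiConj.exists_conj_of_pow` with e = e' = 9.) -/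
theorem cub (w : F) (hw : w ^ 2 + w + 1 = 0) (h3 : (3 : F) ≠ 0) (x : Matrix (Fin 3) (Fin 3) F)
    (hd : x.det = 1) (z : F) (hz : z ≠ 1) (hx : x ^ 3 = z • 1) (hns : ∀ c : F, x ≠ c • 1) :
    ∃ (σ : F) (Q : (Matrix (Fin 3) (Fin 3) F)ˣ), σ ≠ 0 ∧
      ((Q : Matrix (Fin 3) (Fin 3) F) * x = (σ • u0 w) * (Q : Matrix (Fin 3) (Fin 3) F) ∨
       (Q : Matrix (Fin 3) (Fin 3) F) * x = (σ • u0 (w ^ 2)) * (Q : Matrix (Fin 3) (Fin 3) F)) := by
  have hw3 : w ^ 3 = 1 := by linear_combination (w - 1) * hw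
  have hz3 : z ^ 3 = 1 := by
    have := congrArg Matrix.det hx
    rw [Matrix.det_pow, hd, one_pow, Matrix.det_smul, Matrix.det_one, mul_one] at this
    simpa using this.symm
  have hzq : z ^ 2 + z + 1 = 0 := by
    have h4 : (z - 1) * (z ^ 2 + z + 1) = 0 := by linear_combination hz3
    exact (mul_eq_zero.1 h4).resolve_left (sub_ne_zero.2 hz)
  have h5 : (z - w) * (z - w ^ 2) = 0 := by
    linear_combination hzq - z * hw + (w - 1) * hw
  rcases mul_eq_zero.1 h5 with h | h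
  · have hzw : z = (w ^ 2) ^ 2 := by
      rw [sub_eq_zero.1 h]
      have : (w ^ 2) ^ 2 = w ^ 3 * w := by ring
      rw [this, hw3, one_mul]
    obtain ⟨σ, Q, hσ, hQ⟩ := cub_core (w ^ 2) (by linear_combination (w ^ 2 - w + 1) * hw) h3 x hd (hzw ▸ hz)
      (hzw ▸ hx) hns
    exact ⟨σ, Q, hσ, Or.inr hQ⟩
  · have hzw : z = w ^ 2 := sub_eq_zero.1 h
    obtain ⟨σ, Q, hσ, hQ⟩ := cub_core w hw h3 x hd (hzw ▸ hz) (hzw ▸ hx) hns
    exact ⟨σ, Q, hσ, Or.inl hQ⟩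

end Cfsg.Agent.Lib.Helper48.E27
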