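import Mathlib
import Cfsg.Prelude.Def_GeometricClasses
import Cfsg.Agent.Lib.Helper77.Asch.Defs

/-! Ladder E27 (S5998): definitions. -/

set_option autoImplicit false

namespace Cfsg.Agent.Lib.Helper48.E27

/-- minus the permutation matrix swapping `e_1`, `e_2`: an involution of determinant 1. -/
def t0 (F : Type*) [Field F] : Matrix (Fin 3) (Fin 3) F := !![-1, 0, 0; 0, 0, -1; 0, -1, 0]

/-- `diag(1, 1, w)`. -/
def u0 {F : Type*} [Field F] (w : F) : Matrix (Fin 3) (Fin 3) F := !![1, 0, 0; 0, 1, 0; 0, 0, w]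

/-- `diag(a, 1, 1)`. -/
def cA {F : Type*} [Field F] (a : F) : Matrix (Fin 3) (Fin 3) F := !![a, 0, 0; 0, 1, 0; 0, 0, 1]

end Cfsg.Agent.Lib.Helper48.E27
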