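import Cfsg.Agent.Lib.Helper48.E27.NRM

set_option autoImplicit false

namespace Cfsg.Agent.Lib.Helper48.E27

open Cfsg Cfsg.Geo Cfsg.Agent.Lib.Helper77.Asch
open scoped MatrixGroups

variable {F : Type*} [Field F]

theorem elt_X (w : F) : Matrix.diagonal (fun i : Fin 3 => w ^ (i : ℕ)) =
    !![1, 0, 0; 0, w, 0; 0, 0, w ^ 2] := by
  ext i j
  fin_cases i <;> fin_cases j <;> simp

theorem elt_Y : shiftM 3 F = !![0, 0, 1; 1, 0, 0; 0, 1, 0] := by
  ext i j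
  fin_cases i <;> fin_cases j <;> simp [shiftM]

theorem elt_t0X (w c : F) (hw : w ^ 3 = 1) :
    (c • t0 F) * !![1, 0, 0; 0, w, 0; 0, 0, w ^ 2] =
      (!![1, 0, 0; 0, w, 0; 0, 0, w ^ 2] * !![1, 0, 0; 0, w, 0; 0, 0, w ^ 2]) * (c • t0 F) := by
  ext i j
  fin_cases i <;> fin_cases j <;> simp [t0, Matrix.mul_apply, Fin.sum_univ_three]
  · ring
  · linear_combination (-(c * w)) * hw

theorem elt_t0Y (c : F) :
    (c • t0 F) * !![0, 0, 1; 1, 0, 0; 0, 1, 0] =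
      (!![0, 0, 1; 1, 0, 0; 0, 1, 0] * !![0, 0, 1; 1, 0, 0; 0, 1, 0]) * (c • t0 F) := by
  ext i j
  fin_cases i <;> fin_cases j <;> simp [t0, Matrix.mul_apply, Fin.sum_univ_three]

theorem elt_uX (w c v : F) :
    (c • u0 v) * !![1, 0, 0; 0, w, 0; 0, 0, w ^ 2] =
      !![1, 0, 0; 0, w, 0; 0, 0, w ^ 2] * (c • u0 v) := by
  ext i j
  fin_cases i <;> fin_cases j <;> simp [u0, Matrix.mul_apply, Fin.sum_univ_three]
  · ring
  · ring

theorem elt_uY (w c : F) (hw : w ^ 3 = 1) :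
    (c • u0 w) * !![0, 0, 1; 1, 0, 0; 0, 1, 0] =
      (!![0, 0, 1; 1, 0, 0; 0, 1, 0] * !![1, 0, 0; 0, w, 0; 0, 0, w ^ 2]) * (c • u0 w) := by
  ext i j
  fin_cases i <;> fin_cases j <;> simp [u0, Matrix.mul_apply, Fin.sum_univ_three]
  · linear_combination (-c) * hw
  · ring

theorem elt_uY2 (w c : F) (hw : w ^ 3 = 1) :
    (c • u0 (w ^ 2)) * !![0, 0, 1; 1, 0, 0; 0, 1, 0] =
      (!![0, 0, 1; 1, 0, 0; 0, 1, 0] *
        (!![1, 0, 0; 0, w, 0; 0, 0, w ^ 2] * !![1, 0, 0; 0, w, 0; 0, 0, w ^ 2])) *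
        (c • u0 (w ^ 2)) := by
  ext i j
  fin_cases i <;> fin_cases j <;> simp [u0, Matrix.mul_apply, Fin.sum_univ_three]
  · linear_combination (-c * (w ^ 3 + 1)) * hw
  · ring

/-- RUNG ELT: the explicit elements normalising `R` (in the basis of `heis_basis`). -/
theorem elt (R : Subgroup (GL (Fin 3) F)) [Finite R] (x y B : GL (Fin 3) F) (w : Fˣ) (hw : orderOf w = 3)
    (hgen : R = Subgroup.closure {x, y})
    (hBx : ((B * x * B⁻¹ : GL (Fin 3) F) : Matrix (Fin 3) (Fin 3) F) =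
      Matrix.diagonal (fun i : Fin 3 => (w : F) ^ (i : ℕ)))
    (hBy : ((B * y * B⁻¹ : GL (Fin 3) F) : Matrix (Fin 3) (Fin 3) F) = shiftM 3 F)
    (g0 : GL (Fin 3) F) (c : F)
    (h : (g0 : Matrix (Fin 3) (Fin 3) F) = c • t0 F ∨ (g0 : Matrix (Fin 3) (Fin 3) F) = c • u0 (w : F) ∨
      (g0 : Matrix (Fin 3) (Fin 3) F) = c • u0 ((w : F) ^ 2)) :
    B⁻¹ * g0 * B ∈ subgroupNormalizer R := by
  have hw3 : (w : F) ^ 3 = 1 := by
    have h1 : w ^ 3 = 1 := by rw [← hw]; exact pow_orderOf_eq_one w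
    have h2 := congrArg (fun u : Fˣ => (u : F)) h1
    simpa using h2
  rw [elt_X] at hBx
  rw [elt_Y] at hBy
  have hxR : x ∈ R := by
    rw [hgen]
    exact Subgroup.subset_closure (by simp)
  have hyR : y ∈ R := by
    rw [hgen]
    exact Subgroup.subset_closure (by simp)
  have hconj : ∀ (a wd : GL (Fin 3) F),
      ((g0 : Matrix (Fin 3) (Fin 3) F) * ((B * a * B⁻¹ : GL (Fin 3) F) : Matrix (Fin 3) (Fin 3) F) =
        ((B * wd * B⁻¹ : GL (Fin 3) F) : Matrix (Fin 3) (Fin 3) F) *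
          (g0 : Matrix (Fin 3) (Fin 3) F)) →
      (B⁻¹ * g0 * B) * a * (B⁻¹ * g0 * B)⁻¹ = wd := by
    intro a wd h1
    have h' : g0 * (B * a * B⁻¹) = (B * wd * B⁻¹) * g0 := by
      apply Units.ext
      rw [Units.val_mul, Units.val_mul]
      exact h1
    have h2 : (B⁻¹ * g0 * B) * a * (B⁻¹ * g0 * B)⁻¹ = B⁻¹ * (g0 * (B * a * B⁻¹)) * g0⁻¹ * B := by
      group
    rw [h2, h']
    group
  have hmul : ∀ a b : GL (Fin 3) F,
      ((B * (a * b) * B⁻¹ : GL (Fin 3) F) : Matrix (Fin 3) (Fin 3) F) =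
        ((B * a * B⁻¹ : GL (Fin 3) F) : Matrix (Fin 3) (Fin 3) F) *
          ((B * b * B⁻¹ : GL (Fin 3) F) : Matrix (Fin 3) (Fin 3) F) := by
    intro a b
    rw [← Units.val_mul]
    congr 1
    group
  rcases h with h | h | h
  · apply nrm R x y _ hgen
    · rw [hconj x (x * x) (by rw [hmul, hBx, h]; exact elt_t0X _ c hw3)]
      exact R.mul_mem hxR hxR
    · rw [hconj y (y * y) (by rw [hmul, hBy, h]; exact elt_t0Y c)]
      exact R.mul_mem hyR hyR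
  · apply nrm R x y _ hgen
    · rw [hconj x x (by rw [hBx, h]; exact elt_uX _ c _)]
      exact hxR
    · rw [hconj y (y * x) (by rw [hmul, hBx, hBy, h]; exact elt_uY _ c hw3)]
      exact R.mul_mem hyR hxR
  · apply nrm R x y _ hgen
    · rw [hconj x x (by rw [hBx, h]; exact elt_uX _ c _)]
      exact hxR
    · rw [hconj y (y * (x * x)) (by rw [hmul, hmul, hBx, hBy, h]; exact elt_uY2 _ c hw3)]
      exact R.mul_mem hyR (R.mul_mem hxR hxR)

end Cfsg.Agent.Lib.Helper48.E27
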