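import Cfsg.Agent.Lib.Helper48.E27.Defs

set_option autoImplicit false

namespace Cfsg.Agent.Lib.Helper48.E27

open Cfsg Cfsg.Geo Cfsg.Agent.Lib.Helper77.Asch
open scoped MatrixGroups

variable {F : Type*} [Field F]

/-- RUNG FIN: from GL-conjugacy to SL-conjugacy (take g = Q⁻¹ C B, C = cA a, a = det Q / det B). -/
theorem fin_adj (N : Subgroup (GL (Fin 3) F)) (B g0 x Q : GL (Fin 3) F) (hN : B⁻¹ * g0 * B ∈ N)
    (hcomm : ∀ a : F, cA a * (g0 : Matrix (Fin 3) (Fin 3) F) = (g0 : Matrix (Fin 3) (Fin 3) F) * cA a)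
    (hQ : Q * x = g0 * Q) : ∃ g ∈ specialLinear (Fin 3) F, g⁻¹ * x * g ∈ N := by
  obtain ⟨a, ha⟩ : ∃ a : Fˣ, a = Matrix.GeneralLinearGroup.det Q * (Matrix.GeneralLinearGroup.det B)⁻¹ := ⟨_, rfl⟩
  have hdet : (cA (a : F)).det = a := by
    rw [cA, Matrix.det_fin_three]
    simp
  obtain ⟨C, hC⟩ : ∃ C : GL (Fin 3) F, (C : Matrix (Fin 3) (Fin 3) F) = cA (a : F) :=
    ⟨Matrix.GeneralLinearGroup.mkOfDetNeZero (cA (a : F)) (by rw [hdet]; exact a.ne_zero), rfl⟩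
  have hCd : Matrix.GeneralLinearGroup.det C = a := by
    apply Units.ext
    rw [Matrix.GeneralLinearGroup.val_det_apply, hC, hdet]
  have hCg : C * g0 = g0 * C := by
    apply Units.ext
    rw [Units.val_mul, Units.val_mul, hC, hcomm]
  refine ⟨Q⁻¹ * C * B, ?_, ?_⟩
  · show Matrix.GeneralLinearGroup.det (Q⁻¹ * C * B) = 1
    rw [map_mul, map_mul, map_inv, hCd, ha]
    generalize Matrix.GeneralLinearGroup.det Q = q
    generalize Matrix.GeneralLinearGroup.det B = b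
    rw [← mul_assoc, inv_mul_cancel, one_mul, inv_mul_cancel]
  · have h1 : (Q⁻¹ * C * B)⁻¹ * x * (Q⁻¹ * C * B) = B⁻¹ * g0 * B := by
      have h2 : x = Q⁻¹ * g0 * Q := by
        rw [mul_assoc, ← hQ]; group
      have h3 : C⁻¹ * g0 * C = g0 := by
        rw [mul_assoc, ← hCg]; group
      calc (Q⁻¹ * C * B)⁻¹ * x * (Q⁻¹ * C * B) = B⁻¹ * (C⁻¹ * g0 * C) * B := by rw [h2]; group
        _ = B⁻¹ * g0 * B := by rw [h3]
    rw [h1]
    exact hN

end Cfsg.Agent.Lib.Helper48.E27
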