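import Cfsg.Agent.Lib.Helper48.E27.Defs

set_option autoImplicit false

namespace Cfsg.Agent.Lib.Helper48.E27

open Cfsg Cfsg.Geo Cfsg.Agent.Lib.Helper77.Asch
open scoped MatrixGroups

variable {F : Type*} [Field F]

theorem g27_comm_of_dvd9 {G : Type*} [Group G] (h : Nat.card G ∣ 9) (a b : G) : a * b = b * a := by
  have h9 : Nat.card G ∈ Nat.divisors 9 := Nat.mem_divisors.mpr ⟨h, by norm_num⟩
  have hd : Nat.divisors 9 = {1, 3, 9} := by decide
  rw [hd] at h9
  simp only [Finset.mem_insert, Finset.mem_singleton] at h9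
  rcases h9 with h1 | h3 | h9
  · have := (Nat.card_eq_one_iff_unique.mp h1).1
    rw [Subsingleton.elim a b]
  · have : Fact (Nat.Prime 3) := ⟨by norm_num⟩
    have hc : IsCyclic G := isCyclic_of_prime_card h3
    exact (IsCyclic.isMulCommutative (α := G)).is_comm.comm a b
  · have : Fact (Nat.Prime 3) := ⟨by norm_num⟩
    exact (IsPGroup.isMulCommutative_of_card_eq_prime_sq (p := 3) (G := G) (by rw [h9]; norm_num)).is_comm.comm a b

theorem g27_main {G : Type*} [Group G] (h : Nat.card G = 27) (hna : ¬ ∀ a b : G, a * b = b * a) :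
    ∃ x y : G, x * y * x⁻¹ * y⁻¹ ≠ 1 ∧ x * y * x⁻¹ * y⁻¹ ∈ Subgroup.center G ∧
      Subgroup.closure {x, y} = ⊤ := by
  have : Fact (Nat.Prime 3) := ⟨by norm_num⟩
  have hfin : Finite G := Nat.finite_of_card_ne_zero (by rw [h]; norm_num)
  have hp : IsPGroup 3 G := IsPGroup.of_card (n := 3) (by rw [h]; norm_num)
  have hnt : Nontrivial G := by
    rw [← Finite.one_lt_card_iff_nontrivial, h]; norm_num
  have hZ : Nontrivial (Subgroup.center G) := hp.center_nontrivial
  have hZ1 : 1 < Nat.card (Subgroup.center G) := Finite.one_lt_card_iff_nontrivial.mpr hZ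
  have hmul : Nat.card (Subgroup.center G) * Nat.card (G ⧸ Subgroup.center G) = 27 := by
    rw [← h, mul_comm]; exact (Subgroup.card_eq_card_quotient_mul_card_subgroup _).symm
  have hq : Nat.card (G ⧸ Subgroup.center G) ∣ 9 := by
    have h27 : Nat.card (G ⧸ Subgroup.center G) ∈ Nat.divisors 27 :=
      Nat.mem_divisors.mpr ⟨⟨_, by rw [mul_comm]; exact hmul.symm⟩, by norm_num⟩
    have hd : Nat.divisors 27 = {1, 3, 9, 27} := by decide
    rw [hd] at h27
    simp only [Finset.mem_insert, Finset.mem_singleton] at h27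
    rcases h27 with h1 | h1 | h1 | h1
    · rw [h1]; norm_num
    · rw [h1]; norm_num
    · rw [h1]
    · rw [h1] at hmul; omega
  push Not at hna
  obtain ⟨x, y, hxy⟩ := hna
  refine ⟨x, y, ?_, ?_, ?_⟩
  · intro h1
    apply hxy
    have : x * y = (x * y * x⁻¹ * y⁻¹) * (y * x) := by group
    rw [this, h1, one_mul]
  · have := g27_comm_of_dvd9 hq (x : G ⧸ Subgroup.center G) (y : G ⧸ Subgroup.center G)
    rw [← QuotientGroup.eq_one_iff]
    rw [QuotientGroup.mk_mul, QuotientGroup.mk_mul, QuotientGroup.mk_mul, this,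
      QuotientGroup.mk_inv, QuotientGroup.mk_inv]
    group
  · by_contra hne
    have hdvd : Nat.card (Subgroup.closure {x, y} : Subgroup G) ∣ 27 := by
      rw [← h]; exact Subgroup.card_subgroup_dvd_card _
    have h9 : Nat.card (Subgroup.closure {x, y} : Subgroup G) ∣ 9 := by
      have h27 : Nat.card (Subgroup.closure {x, y} : Subgroup G) ∈ Nat.divisors 27 :=
        Nat.mem_divisors.mpr ⟨hdvd, by norm_num⟩
      have hd : Nat.divisors 27 = {1, 3, 9, 27} := by decide
      rw [hd] at h27
      simp only [Finset.mem_insert, Finset.mem_singleton] at h27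
      rcases h27 with h1 | h1 | h1 | h1
      · rw [h1]; norm_num
      · rw [h1]; norm_num
      · rw [h1]
      · exact absurd (Subgroup.eq_top_of_card_eq _ (by rw [h1, h])) hne
    have hx : x ∈ Subgroup.closure {x, y} := Subgroup.subset_closure (by simp)
    have hy : y ∈ Subgroup.closure {x, y} := Subgroup.subset_closure (by simp)
    have := g27_comm_of_dvd9 h9 ⟨x, hx⟩ ⟨y, hy⟩
    exact hxy (congrArg Subtype.val this)

/-- RUNG G27: a non-abelian group of order 27 has non-commuting generators with central commutator.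
(centre nontrivial, G/Z not cyclic so |Z| = 3, G/Z of order 9 abelian; closure{x,y} non-abelian so of order 27.) -/
theorem g27 {G : Type*} [Group G] (hG : Nat.card G = 27) (hna : ¬ ∀ a b : G, a * b = b * a) :
    ∃ x y z : G, z ≠ 1 ∧ x * y = z * (y * x) ∧ (∀ g : G, g * z = z * g) ∧
      Subgroup.closure {x, y} = (⊤ : Subgroup G) := by
  obtain ⟨x, y, h1, h2, h3⟩ := g27_main hG hna
  refine ⟨x, y, x * y * x⁻¹ * y⁻¹, h1, by group, fun g => ?_, h3⟩
  exact Subgroup.mem_center_iff.mp h2 g

end Cfsg.Agent.Lib.Helper48.E27
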