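import Cfsg.Agent.Lib.Helper48.E27.Defs

set_option autoImplicit false

namespace Cfsg.Agent.Lib.Helper48.E27

open Cfsg Cfsg.Geo Cfsg.Agent.Lib.Helper77.Asch
open scoped MatrixGroups

variable {F : Type*} [Field F]

theorem idx_arith (m c : ℕ) (h81 : 81 ∣ c)
    (h : ((3 * m + 1) ^ 3 - 1) * ((3 * m + 1) ^ 3 - (3 * m + 1)) * ((3 * m + 1) ^ 3 - (3 * m + 1) ^ 2)
      = (3 * m + 1 - 1) * c) : 3 ∣ m := by
  rcases Nat.eq_zero_or_pos m with rfl | hm
  · exact dvd_zero _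
  have e1 : (3 * m + 1) ^ 3 - 1 = 3 * m * (3 * (3 * m ^ 2 + 3 * m + 1)) := by
    apply Nat.sub_eq_of_eq_add; ring
  have e2 : (3 * m + 1) ^ 3 - (3 * m + 1) = 3 * m * ((3 * m + 1) * (3 * m + 2)) := by
    apply Nat.sub_eq_of_eq_add; ring
  have e3 : (3 * m + 1) ^ 3 - (3 * m + 1) ^ 2 = 3 * m * (3 * m + 1) ^ 2 := by
    apply Nat.sub_eq_of_eq_add; ring
  have e4 : 3 * m + 1 - 1 = 3 * m := by omega
  rw [e1, e2, e3, e4] at h
  have h' : c = 27 * (m ^ 2 * ((3 * m ^ 2 + 3 * m + 1) * ((3 * m + 1) ^ 3 * (3 * m + 2)))) := by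
    have h3m : 0 < 3 * m := by omega
    apply Nat.eq_of_mul_eq_mul_left h3m
    rw [← h]; ring
  rw [h'] at h81
  have h3 : 3 ∣ m ^ 2 * ((3 * m ^ 2 + 3 * m + 1) * ((3 * m + 1) ^ 3 * (3 * m + 2))) := by
    have : 27 * 3 ∣ 27 * (m ^ 2 * ((3 * m ^ 2 + 3 * m + 1) * ((3 * m + 1) ^ 3 * (3 * m + 2)))) := h81
    exact Nat.dvd_of_mul_dvd_mul_left (by norm_num) this
  have p3 : Nat.Prime 3 := Nat.prime_three
  rcases (Nat.Prime.dvd_mul p3).mp h3 with h | h
  · exact p3.dvd_of_dvd_pow h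
  rcases (Nat.Prime.dvd_mul p3).mp h with h | h
  · exfalso
    have : 3 * m ^ 2 + 3 * m + 1 = 3 * (m ^ 2 + m) + 1 := by ring
    omega
  rcases (Nat.Prime.dvd_mul p3).mp h with h | h
  · have := p3.dvd_of_dvd_pow h
    omega
  · omega

/-- RUNG IDX: 3 divides the index of N(R) ∩ SL only if p ≡ 1 mod 9. -/
theorem idx [Fintype F] {p : ℕ} (hF : Fintype.card F = p) (hp3 : p % 3 = 1)
    (R : Subgroup (GL (Fin 3) F)) (hR : Nat.card R = 27) (hRS : R ≤ specialLinear (Fin 3) F)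
    (h : 3 ∣ (subgroupNormalizer R).relIndex (specialLinear (Fin 3) F)) : p % 9 = 1 := by
  classical
  obtain ⟨m, hm⟩ : ∃ m, p = 3 * m + 1 := ⟨p / 3, by omega⟩
  have hN : R ≤ subgroupNormalizer R ⊓ specialLinear (Fin 3) F :=
    le_inf Subgroup.le_normalizer hRS
  have h27 : 27 ∣ Nat.card (subgroupNormalizer R ⊓ specialLinear (Fin 3) F : Subgroup _) :=
    hR ▸ Subgroup.card_dvd_of_le hN
  have hmul := Subgroup.relIndex_mul_relIndex ⊥ (subgroupNormalizer R ⊓ specialLinear (Fin 3) F)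
    (specialLinear (Fin 3) F) bot_le inf_le_right
  rw [Subgroup.relIndex_bot_left, Subgroup.relIndex_bot_left, Subgroup.inf_relIndex_right] at hmul
  have h81 : 81 ∣ Nat.card (specialLinear (Fin 3) F) := by
    rw [← hmul]
    exact Nat.mul_dvd_mul h27 h
  have hGL : Nat.card (GL (Fin 3) F) = Nat.card Fˣ * Nat.card (specialLinear (Fin 3) F) := by
    have h1 := Subgroup.card_eq_card_quotient_mul_card_subgroup
      (Matrix.GeneralLinearGroup.det : GL (Fin 3) F →* Fˣ).ker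
    have h2 : Nat.card (GL (Fin 3) F ⧸ (Matrix.GeneralLinearGroup.det : GL (Fin 3) F →* Fˣ).ker)
        = Nat.card Fˣ :=
      Nat.card_congr (QuotientGroup.quotientKerEquivOfSurjective _
        Matrix.GeneralLinearGroup.det_surjective).toEquiv
    rw [h2] at h1; exact h1
  rw [Matrix.card_GL_field, Fin.prod_univ_three, hF, Nat.card_eq_fintype_card (α := Fˣ),
    Fintype.card_units, hF] at hGL
  simp only [Fin.val_zero, Fin.val_one, Fin.val_two, pow_zero, pow_one] at hGL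
  rw [hm] at hGL
  have := idx_arith m _ h81 hGL
  omega

end Cfsg.Agent.Lib.Helper48.E27
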