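import Cfsg.Agent.Lib.Helper48.E27.Defs
import Cfsg.Agent.Lib.Helper50.SemiConj
import Cfsg.Agent.Lib.Helper48.Singer3

set_option autoImplicit false

namespace Cfsg.Agent.Lib.Helper48.E27

open Cfsg Cfsg.Geo Cfsg.Agent.Lib.Helper77.Asch
open scoped MatrixGroups

variable {F : Type*} [Field F]

section
open Polynomial

theorem inv2_form (x : Matrix (Fin 3) (Fin 3) F) (hd : x.det = 1) :
    ∃ a b : F, x.charpoly = X ^ 3 + C a * X ^ 2 + C b * X - 1 := by
  obtain ⟨r, hr⟩ : ∃ r, r = x.charpoly - X ^ 3 := ⟨_, rfl⟩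
  have hdeg : x.charpoly.degree = 3 := by
    rw [Matrix.charpoly_degree_eq_dim]; rfl
  have hdeg' : (X ^ 3 : F[X]).degree = 3 := degree_X_pow 3
  have hlt : r.degree < 3 := by
    rw [hr, ← hdeg]
    apply degree_sub_lt_left (by rw [hdeg, hdeg'])
    · exact x.charpoly_monic.ne_zero
    · rw [x.charpoly_monic.leadingCoeff, (monic_X_pow 3).leadingCoeff]
  have hc0 : r.coeff 0 = -1 := by
    have h1 := Matrix.det_eq_sign_charpoly_coeff x
    rw [hd] at h1
    simp only [Fintype.card_fin] at h1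
    have h2 : x.charpoly.coeff 0 = -1 := by linear_combination h1
    rw [hr]
    simp [h2]
  have hform : r = C (r.coeff 2) * X ^ 2 + C (r.coeff 1) * X + C (-1) := by
    ext i
    rcases i with _ | _ | _ | i
    · simp [hc0]
    · simp [coeff_one]
    · simp [coeff_one]
    · rw [coeff_eq_zero_of_degree_lt (lt_of_lt_of_le hlt (by
        have : (3 : ℕ) ≤ i + 1 + 1 + 1 := by omega
        exact_mod_cast this))]
      simp [coeff_one]
  refine ⟨r.coeff 2, r.coeff 1, ?_⟩
  have h3 : x.charpoly = X ^ 3 + r := by rw [hr]; ring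
  rw [h3]
  conv_lhs => rw [hform]
  simp only [map_neg, map_one]
  ring

/-- a non-scalar involution of determinant one has characteristic polynomial `X^3 + X^2 - X - 1`. -/
theorem inv2_charpoly (x : Matrix (Fin 3) (Fin 3) F) (hx : x ^ 2 = 1) (hd : x.det = 1)
    (hns : ∀ z : F, x ≠ z • 1) : x.charpoly = X ^ 3 + X ^ 2 - X - 1 := by
  obtain ⟨a, b, h1⟩ := inv2_form x hd
  have h0 : aeval x x.charpoly = 0 := Matrix.aeval_self_charpoly x
  rw [h1] at h0
  have hx3 : x ^ 3 = x := by rw [pow_succ, hx, one_mul]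
  simp only [map_add, map_sub, map_mul, aeval_C, map_pow, aeval_X, map_one,
    Algebra.algebraMap_eq_smul_one, smul_mul_assoc, one_mul, hx, hx3] at h0
  have h2 : (1 + b) • x = (1 - a) • (1 : Matrix (Fin 3) (Fin 3) F) := by
    rw [add_smul, sub_smul, one_smul, one_smul]
    have h3 : x + b • x - ((1 : Matrix (Fin 3) (Fin 3) F) - a • 1) = x + a • 1 + b • x - 1 := by abel
    rw [← sub_eq_zero, h3, h0]
  have hb : 1 + b = 0 := by
    by_contra hb
    apply hns ((1 + b)⁻¹ * (1 - a))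
    calc x = (1 + b)⁻¹ • ((1 + b) • x) := by rw [smul_smul, inv_mul_cancel₀ hb, one_smul]
      _ = ((1 + b)⁻¹ * (1 - a)) • 1 := by rw [h2, smul_smul]
  have ha : 1 - a = 0 := by
    rw [hb, zero_smul] at h2
    have := congrFun (congrFun h2 0) 0
    simpa using this.symm
  have ha' : a = 1 := (sub_eq_zero.1 ha).symm
  have hb' : b = -1 := by linear_combination hb
  rw [h1, ha', hb']
  simp only [map_neg, map_one]
  ring

theorem inv2_conj (h2 : (2 : F) ≠ 0) (x t : Matrix (Fin 3) (Fin 3) F) (hx : x ^ 2 = 1)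
    (hd : x.det = 1) (hns : ∀ z : F, x ≠ z • 1) (ht : t ^ 2 = 1) (htd : t.det = 1)
    (htns : ∀ z : F, t ≠ z • 1) :
    ∃ P : (Matrix (Fin 3) (Fin 3) F)ˣ, (P : Matrix (Fin 3) (Fin 3) F) * x = t * P := by
  have h2' : ((2 : ℕ) : F) ≠ 0 := by exact_mod_cast h2
  exact Cfsg.Agent.Lib.Helper50.SemiConj.exists_conj_of_pow x t 2 2 h2' h2' hx ht
    (by rw [inv2_charpoly x hx hd hns, inv2_charpoly t ht htd htns])

end

/-- RUNG INV2: a non-scalar involution of determinant 1 is GL-conjugate to `t0`. -/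
theorem inv2 (h2 : (2 : F) ≠ 0) (x : Matrix (Fin 3) (Fin 3) F) (hd : x.det = 1) (hx : x ^ 2 = 1)
    (hns : ∀ z : F, x ≠ z • 1) :
    ∃ Q : (Matrix (Fin 3) (Fin 3) F)ˣ, (Q : Matrix (Fin 3) (Fin 3) F) * x = t0 F * (Q : Matrix (Fin 3) (Fin 3) F) := by
  apply inv2_conj h2 x (t0 F) hx hd hns
  · ext i j
    fin_cases i <;> fin_cases j <;> simp [t0, pow_succ, Matrix.mul_apply, Fin.sum_univ_three]
  · rw [t0, Matrix.det_fin_three]
    simp
  · intro z h
    have := congrFun (congrFun h 1) 2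
    simp [t0] at this

end Cfsg.Agent.Lib.Helper48.E27
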