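import Cfsg.Agent.Lib.Helper48.E27.Defs

set_option autoImplicit false

namespace Cfsg.Agent.Lib.Helper48.E27

open Cfsg Cfsg.Geo Cfsg.Agent.Lib.Helper77.Asch
open scoped MatrixGroups

variable {F : Type*} [Field F]

/-- RUNG NRM: normaliser criterion for a finite 2-generated subgroup. -/
theorem nrm {G : Type*} [Group G] (R : Subgroup G) [Finite R] (x y g : G)
    (hgen : R = Subgroup.closure {x, y}) (hx : g * x * g⁻¹ ∈ R) (hy : g * y * g⁻¹ ∈ R) :
    g ∈ Subgroup.normalizer (R : Set G) := by
  have hle : ∀ a ∈ R, g * a * g⁻¹ ∈ R := by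
    intro a ha
    rw [hgen] at ha
    induction ha using Subgroup.closure_induction with
    | mem a ha =>
      rcases ha with rfl | rfl
      · exact hx
      · exact hy
    | one => simp [R.one_mem]
    | mul a b _ _ iha ihb =>
      have := R.mul_mem iha ihb
      convert this using 1
      group
    | inv a _ iha =>
      have := R.inv_mem iha
      convert this using 1
      group
  let f : R → R := fun a => ⟨g * a * g⁻¹, hle a a.2⟩
  have hinj : Function.Injective f := by
    intro a b hab
    have h1 : g * (a : G) * g⁻¹ = g * (b : G) * g⁻¹ := congrArg Subtype.val hab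
    exact Subtype.ext (mul_left_cancel (mul_right_cancel h1))
  have hsurj := Finite.surjective_of_injective hinj
  rw [Subgroup.mem_normalizer_iff]
  intro a
  constructor
  · exact hle a
  · intro ha
    obtain ⟨b, hb⟩ := hsurj ⟨_, ha⟩
    have h1 : g * (b : G) * g⁻¹ = g * a * g⁻¹ := congrArg Subtype.val hb
    have h2 : (b : G) = a := mul_left_cancel (mul_right_cancel h1)
    rw [← h2]
    exact b.2

end Cfsg.Agent.Lib.Helper48.E27
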