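import Cfsg.Agent.Lib.Helper48.E27.Defs

set_option autoImplicit false

namespace Cfsg.Agent.Lib.Helper48.E27

open Cfsg Cfsg.Geo Cfsg.Agent.Lib.Helper77.Asch
open scoped MatrixGroups

variable {F : Type*} [Field F]

open Module

/-- eigenvector of an operator of order 3 inside the cyclic span of `w`. -/
theorem scz_eig {F V : Type*} [Field F] [AddCommGroup V] [Module F V] (T : End F V)
    (hT : T ^ 3 = 1) (ω : F) (hω : ω ^ 2 + ω + 1 = 0) (P : V → Prop)
    (hadd : ∀ a b, P a → P b → P (a + b)) (hsmul : ∀ (c : F) a, P a → P (c • a))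
    (hTP : ∀ a, P a → P (T a)) (w : V) (hw : w ≠ 0) (hPw : P w) :
    ∃ v, v ≠ 0 ∧ P v ∧ ((T v = v ∧ w + T w + T (T w) ≠ 0) ∨ T v = ω • v ∨ T v = ω ^ 2 • v) := by
  have h3 : T (T (T w)) = w := by
    have := congrArg (fun f : End F V => f w) hT
    simpa [pow_succ, Module.End.mul_apply] using this
  have hω3 : ω ^ 3 = 1 := by linear_combination (ω - 1) * hω
  by_cases h1 : w + T w + T (T w) = 0
  · by_cases h2 : T w - ω ^ 2 • w = 0
    · exact ⟨w, hw, hPw, Or.inr (Or.inr (sub_eq_zero.mp h2))⟩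
    · refine ⟨T w - ω ^ 2 • w, h2, ?_, Or.inr (Or.inl ?_)⟩
      · rw [sub_eq_add_neg, ← neg_smul]
        exact hadd _ _ (hTP _ hPw) (hsmul _ _ hPw)
      · have hc : T (T w) = - w - T w := by
          rw [eq_sub_iff_add_eq, eq_neg_iff_add_eq_zero]
          rw [← h1]; abel
        rw [map_sub, map_smul, hc, smul_sub, smul_smul]
        have e1 : ω * ω ^ 2 = 1 := by rw [← hω3]; ring
        have e2 : ω ^ 2 = - 1 - ω := by linear_combination hω
        rw [e1, e2, one_smul, sub_smul, neg_smul, one_smul]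
        abel
  · refine ⟨w + T w + T (T w), h1, hadd _ _ (hadd _ _ hPw (hTP _ hPw)) (hTP _ (hTP _ hPw)),
      Or.inl ⟨?_, h1⟩⟩
    rw [map_add, map_add, h3]; abel

theorem scz_end {F V : Type*} [Field F] [AddCommGroup V] [Module F V] (hV : finrank F V = 3)
    (x y z : End F V) (hy : Function.Injective y) (hx3 : x ^ 3 = 1) (hz3 : z ^ 3 = 1)
    (hz1 : z ≠ 1) (hxz : x * z = z * x) (hyz : y * z = z * y) (hxy : x * y = z * y * x)
    (ω : F) (hω3 : ω ^ 3 = 1) (hω1 : ω ≠ 1) : ∃ c : F, z = c • 1 := by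
  have hω : ω ^ 2 + ω + 1 = 0 := by
    have : (ω - 1) * (ω ^ 2 + ω + 1) = 0 := by linear_combination hω3
    rcases mul_eq_zero.mp this with h | h
    · exact absurd (sub_eq_zero.mp h) hω1
    · exact h
  have hω0 : ω ≠ 0 := by
    intro h; rw [h] at hω3; norm_num at hω3
  have hxz' : ∀ v, x (z v) = z (x v) := fun v => by
    have := congrArg (fun f : End F V => f v) hxz
    simpa [Module.End.mul_apply] using this
  have hyz' : ∀ v, y (z v) = z (y v) := fun v => by
    have := congrArg (fun f : End F V => f v) hyz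
    simpa [Module.End.mul_apply] using this
  have hxy' : ∀ v, x (y v) = z (y (x v)) := fun v => by
    have := congrArg (fun f : End F V => f v) hxy
    simpa [Module.End.mul_apply] using this
  have hz3' : ∀ v, z (z (z v)) = v := fun v => by
    have := congrArg (fun f : End F V => f v) hz3
    simpa [pow_succ, Module.End.mul_apply] using this
  -- an eigenvector of z with eigenvalue ≠ 1
  obtain ⟨u, hu⟩ : ∃ u, z u - u ≠ 0 := by
    by_contra hcon
    push Not at hcon
    apply hz1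
    ext v
    simpa [sub_eq_zero] using hcon v
  obtain ⟨lam, hl3, hl1, v0, hv0, hzv0⟩ :
      ∃ lam : F, lam ^ 3 = 1 ∧ lam ≠ 1 ∧ ∃ v0, v0 ≠ 0 ∧ z v0 = lam • v0 := by
    obtain ⟨v, hv, -, h⟩ := scz_eig z hz3 ω hω (fun _ => True) (fun _ _ _ _ => trivial)
      (fun _ _ _ => trivial) (fun _ _ => trivial) (z u - u) hu trivial
    rcases h with ⟨-, h⟩ | h | h
    · exfalso; apply h
      simp only [map_sub, hz3']; abel
    · exact ⟨ω, hω3, hω1, v, hv, h⟩
    · refine ⟨ω ^ 2, by rw [← pow_mul, mul_comm, pow_mul, hω3, one_pow], ?_, v, hv, h⟩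
      intro h2
      apply hω1
      have : ω ^ 3 = ω := by rw [pow_succ, h2, one_mul]
      rw [← this, hω3]
  have hl0 : lam ≠ 0 := by
    intro h; rw [h] at hl3; norm_num at hl3
  -- a common eigenvector of x and z
  obtain ⟨v, hv, hzv, al, hal, hxv⟩ :
      ∃ v, v ≠ 0 ∧ z v = lam • v ∧ ∃ al : F, al ≠ 0 ∧ x v = al • v := by
    obtain ⟨v, hv, hP, h⟩ := scz_eig x hx3 ω hω (fun v => z v = lam • v)
      (fun a b ha hb => by rw [map_add, ha, hb, smul_add])
      (fun c a ha => by rw [map_smul, ha, smul_comm])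
      (fun a ha => by rw [← hxz', ha, map_smul]) v0 hv0 hzv0
    rcases h with ⟨h, -⟩ | h | h
    · exact ⟨v, hv, hP, 1, one_ne_zero, by rw [h, one_smul]⟩
    · exact ⟨v, hv, hP, ω, hω0, h⟩
    · exact ⟨v, hv, hP, ω ^ 2, pow_ne_zero _ hω0, h⟩
  have hzy : z (y v) = lam • y v := by rw [← hyz', hzv, map_smul]
  have hzyy : z (y (y v)) = lam • y (y v) := by rw [← hyz', hzy, map_smul]
  have hxy1 : x (y v) = (al * lam) • y v := by
    rw [hxy', hxv, map_smul, map_smul, hzy, smul_smul]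
  have hxy2 : x (y (y v)) = (al * lam ^ 2) • y (y v) := by
    rw [hxy', hxy1, map_smul, map_smul, hzyy, smul_smul]; congr 1; ring
  have hyv : y v ≠ 0 := fun h => hv (hy (by rw [h, map_zero]))
  have hyyv : y (y v) ≠ 0 := fun h => hyv (hy (by rw [h, map_zero]))
  have hl2 : lam ^ 2 ≠ 1 := by
    intro h2
    apply hl1
    have : lam ^ 3 = lam := by rw [pow_succ, h2, one_mul]
    rw [← this, hl3]
  have hli : LinearIndependent F ![v, y v, y (y v)] := by
    apply Module.End.eigenvectors_linearIndependent' x ![al, al * lam, al * lam ^ 2]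
    · intro i j hij
      have hll : lam ^ 2 ≠ lam := by
        intro h
        apply hl1
        have : lam * lam = lam * 1 := by rw [mul_one, ← sq]; exact h
        exact mul_left_cancel₀ hl0 this
      fin_cases i <;> fin_cases j <;> simp only [Fin.zero_eta, Fin.mk_one, Fin.reduceFinMk,
        Matrix.cons_val_zero, Matrix.cons_val_one, Matrix.cons_val] at hij ⊢
      · exact absurd (mul_left_cancel₀ hal (show al * 1 = al * lam by rw [mul_one]; exact hij)).symm hl1
      · exact absurd (mul_left_cancel₀ hal (show al * 1 = al * lam ^ 2 by rw [mul_one]; exact hij)).symm hl2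
      · exact absurd (mul_left_cancel₀ hal (show al * lam = al * 1 by rw [mul_one]; exact hij)) hl1
      · exact absurd (mul_left_cancel₀ hal hij).symm hll
      · exact absurd (mul_left_cancel₀ hal (show al * lam ^ 2 = al * 1 by rw [mul_one]; exact hij)) hl2
      · exact absurd (mul_left_cancel₀ hal hij) hll
    · intro i
      fin_cases i
      · exact ⟨Module.End.mem_eigenspace_iff.mpr hxv, hv⟩
      · exact ⟨Module.End.mem_eigenspace_iff.mpr hxy1, hyv⟩
      · exact ⟨Module.End.mem_eigenspace_iff.mpr hxy2, hyyv⟩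
  have hfd : FiniteDimensional F V := Module.finite_of_finrank_pos (by rw [hV]; norm_num)
  let b := basisOfLinearIndependentOfCardEqFinrank hli (by rw [hV]; simp)
  refine ⟨lam, ?_⟩
  apply b.ext
  intro i
  rw [coe_basisOfLinearIndependentOfCardEqFinrank]
  fin_cases i
  · simpa using hzv
  · simpa using hzy
  · simpa using hzyy

theorem scz_gl {F : Type*} [Field F] (x y z : GL (Fin 3) F) (hx3 : x ^ 3 = 1) (hz3 : z ^ 3 = 1)
    (hz1 : z ≠ 1) (hxz : x * z = z * x) (hyz : y * z = z * y) (hxy : x * y = z * y * x)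
    (ω : F) (hω3 : ω ^ 3 = 1) (hω1 : ω ≠ 1) :
    ∃ c : F, (z : Matrix (Fin 3) (Fin 3) F) = c • (1 : Matrix (Fin 3) (Fin 3) F) := by
  let φ : Matrix (Fin 3) (Fin 3) F ≃ₐ[F] End F (Fin 3 → F) := Matrix.toLinAlgEquiv'
  have g1 : Function.Injective (φ (y : Matrix (Fin 3) (Fin 3) F)) := by
    have h1 : φ ((y⁻¹ : GL (Fin 3) F) : Matrix (Fin 3) (Fin 3) F) *
        φ (y : Matrix (Fin 3) (Fin 3) F) = 1 := by
      rw [← map_mul, ← Units.val_mul, inv_mul_cancel, Units.val_one, map_one]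
    intro a b hab
    have := congrArg (φ ((y⁻¹ : GL (Fin 3) F) : Matrix (Fin 3) (Fin 3) F)) hab
    rw [← Module.End.mul_apply, ← Module.End.mul_apply, h1] at this
    simpa using this
  have g2 : φ (x : Matrix (Fin 3) (Fin 3) F) ^ 3 = 1 := by
    rw [← map_pow, ← Units.val_pow_eq_pow_val, hx3, Units.val_one, map_one]
  have g3 : φ (z : Matrix (Fin 3) (Fin 3) F) ^ 3 = 1 := by
    rw [← map_pow, ← Units.val_pow_eq_pow_val, hz3, Units.val_one, map_one]
  have g4 : φ (z : Matrix (Fin 3) (Fin 3) F) ≠ 1 := by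
    intro h
    apply hz1
    apply Units.ext
    apply φ.injective
    rw [h, Units.val_one, map_one]
  have g5 : φ (x : Matrix (Fin 3) (Fin 3) F) * φ (z : Matrix (Fin 3) (Fin 3) F) =
      φ (z : Matrix (Fin 3) (Fin 3) F) * φ (x : Matrix (Fin 3) (Fin 3) F) := by
    rw [← map_mul, ← map_mul, ← Units.val_mul, ← Units.val_mul, hxz]
  have g6 : φ (y : Matrix (Fin 3) (Fin 3) F) * φ (z : Matrix (Fin 3) (Fin 3) F) =
      φ (z : Matrix (Fin 3) (Fin 3) F) * φ (y : Matrix (Fin 3) (Fin 3) F) := by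
    rw [← map_mul, ← map_mul, ← Units.val_mul, ← Units.val_mul, hyz]
  have g7 : φ (x : Matrix (Fin 3) (Fin 3) F) * φ (y : Matrix (Fin 3) (Fin 3) F) =
      φ (z : Matrix (Fin 3) (Fin 3) F) * φ (y : Matrix (Fin 3) (Fin 3) F) *
        φ (x : Matrix (Fin 3) (Fin 3) F) := by
    rw [← map_mul, ← map_mul, ← map_mul, ← Units.val_mul, ← Units.val_mul, ← Units.val_mul, hxy]
  obtain ⟨c, hc⟩ := scz_end (F := F) (V := Fin 3 → F) (by simp) _ _ _ g1 g2 g3 g4 g5 g6 g7
    ω hω3 hω1
  refine ⟨c, φ.injective ?_⟩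
  rw [hc, map_smul, map_one]

/-- RUNG SCZ: the central commutator is a scalar.
(z ≠ 1, z^3 = 1: eigenvalue l ≠ 1 of z, l in {w, w^2}; inside ker(z - l) find an eigenvector u of x
[u, (x - w^2)u or (x-w)(x-w^2)u]; then u, yu, y^2u are eigenvectors of x for m, m l, m l^2, all in ker(z - l);
they are independent, so a basis, so z = l.) -/
theorem scz (w : F) (hw : w ^ 2 + w + 1 = 0) (h3 : (3 : F) ≠ 0) (x y z : GL (Fin 3) F)
    (hx : x ^ 3 = 1) (hz : z ^ 3 = 1) (hz1 : z ≠ 1) (hc : x * y = z * (y * x))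
    (hzx : x * z = z * x) (hzy : y * z = z * y) : ∃ c : Fˣ, z = sc c := by
  have hw3 : w ^ 3 = 1 := by linear_combination (w - 1) * hw
  have hw1 : w ≠ 1 := by
    intro h
    apply h3
    rw [h] at hw
    linear_combination hw
  obtain ⟨c, hcz⟩ := scz_gl x y z hx hz hz1 hzx hzy (by rw [hc, mul_assoc]) w hw3 hw1
  have hc0 : c ≠ 0 := by
    intro h0
    rw [h0, zero_smul] at hcz
    have h1 : ((z ^ 3 : GL (Fin 3) F) : Matrix (Fin 3) (Fin 3) F) = 0 := by
      rw [Units.val_pow_eq_pow_val, hcz]; simp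
    rw [hz, Units.val_one] at h1
    exact one_ne_zero h1
  refine ⟨Units.mk0 c hc0, Units.ext ?_⟩
  rw [hcz]
  ext i j
  simp [sc, Matrix.scalar_apply, Matrix.diagonal_apply, Matrix.one_apply]

end Cfsg.Agent.Lib.Helper48.E27
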