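import Cfsg.Agent.Lib.Helper48.E27.G27
import Cfsg.Agent.Lib.Helper48.E27.SCZ
import Cfsg.Agent.Lib.Helper77.Asch.EX1
import Cfsg.Agent.Lib.Helper77.Asch.HB

set_option autoImplicit false

namespace Cfsg.Agent.Lib.Helper48.E27

open Cfsg Cfsg.Geo Cfsg.Agent.Lib.Helper77.Asch
open scoped MatrixGroups

variable {F : Type*} [Field F]

theorem exists_w [Fintype F] {p : ℕ} (hF : Fintype.card F = p) (hp3 : p % 3 = 1) :
    ∃ w : Fˣ, orderOf w = 3 := by
  classical
  have : Fact (Nat.Prime 3) := ⟨Nat.prime_three⟩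
  apply exists_prime_orderOf_dvd_card' 3
  rw [Nat.card_eq_fintype_card, Fintype.card_units, hF]
  omega

theorem w_quad (w : Fˣ) (hw : orderOf w = 3) : (w : F) ^ 2 + w + 1 = 0 := by
  have h1 : (w : F) ^ 3 = 1 := by
    rw [← Units.val_pow_eq_pow_val, ← hw, pow_orderOf_eq_one, Units.val_one]
  have h2 : (w : F) ≠ 1 := by
    intro h
    have : w = 1 := Units.ext h
    rw [this, orderOf_one] at hw
    omega
  have h3 : ((w : F) - 1) * ((w : F) ^ 2 + w + 1) = 0 := by
    have : ((w : F) - 1) * ((w : F) ^ 2 + w + 1) = (w : F) ^ 3 - 1 := by ring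
    rw [this, h1, sub_self]
  rcases mul_eq_zero.1 h3 with h | h
  · exact absurd (sub_eq_zero.1 h) h2
  · exact h

theorem std [Fintype F] {p : ℕ} (hF : Fintype.card F = p) (hp3 : p % 3 = 1) (h3F : (3 : F) ≠ 0)
    (R : Subgroup (GL (Fin 3) F)) (hR : Nat.card R = 27) (hRe : Monoid.exponent R = 3)
    (hRna : ¬ IsMulCommutative R) :
    ∃ (x y : GL (Fin 3) F) (w : Fˣ), x ^ 3 = 1 ∧ y ^ 3 = 1 ∧ orderOf w = 3 ∧ x * y = sc w * (y * x) ∧
      R = Subgroup.closure {x, y} := by
  obtain ⟨w0, hw0⟩ := exists_w hF hp3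
  obtain ⟨x, y, z, hz1, hc, hzc, hgen⟩ := g27 hR (fun h => hRna ⟨⟨h⟩⟩)
  have hpow : ∀ a : R, (a : GL (Fin 3) F) ^ 3 = 1 := by
    intro a
    have := Monoid.pow_exponent_eq_one a
    rw [hRe] at this
    exact congrArg Subtype.val this
  obtain ⟨c, hcz⟩ := scz (w0 : F) (w_quad w0 hw0) h3F (x : GL (Fin 3) F) y z (hpow x) (hpow z)
    (fun h => hz1 (Subtype.ext h)) (congrArg Subtype.val hc) (congrArg Subtype.val (hzc x))
    (congrArg Subtype.val (hzc y))
  refine ⟨x, y, c, hpow x, hpow y, ?_, ?_, ?_⟩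
  · have : Fact (Nat.Prime 3) := ⟨Nat.prime_three⟩
    apply orderOf_eq_prime
    · have h1 := hpow z
      rw [hcz, ex1_sc_pow] at h1
      have h2 := congrArg (fun g : GL (Fin 3) F => (g : Matrix (Fin 3) (Fin 3) F) 0 0) h1
      simp only [hb_sc_coe] at h2
      apply Units.ext
      simpa using h2
    · rintro rfl
      apply hz1
      apply Subtype.ext
      rw [hcz, ex1_sc_one]
      rfl
  · rw [← hcz]
    exact congrArg Subtype.val hc
  · have h1 : R = (⊤ : Subgroup R).map R.subtype := by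
      rw [← MonoidHom.range_eq_map, Subgroup.range_subtype]
    have h2 : (⊤ : Subgroup R).map R.subtype = Subgroup.closure {(x : GL (Fin 3) F), (y : GL (Fin 3) F)} := by
      rw [← hgen, MonoidHom.map_closure]
      congr 1
      simp [Set.image_pair]
    exact h1.trans h2

end Cfsg.Agent.Lib.Helper48.E27
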